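import Cfsg.Agent.CentralExt.Basic

set_option autoImplicit false

/-!
Fibre products of central extensions of a perfect group.
-/

namespace Cfsg.Agent.PSU62Mult

open Subgroup
open scoped commutatorElement

/-- Two perfect central extensions have a perfect common central extension inside their product. -/
theorem exists_fibre {A B G : Type} [Group A] [Group B] [Group G] [Finite A] [Finite B]
    (f : A →* G) (g : B →* G) (hf : Function.Surjective f) (hg : Function.Surjective g)
    (hfc : f.ker ≤ center A) (hgc : g.ker ≤ center B) (hA : commutator A = ⊤) (hB : commutator B = ⊤) :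
    ∃ (D : Type) (_ : Group D) (_ : Finite D) (p : D →* A) (q : D →* B),
      Function.Injective (p.prod q) ∧ f.comp p = g.comp q ∧ Function.Surjective p ∧
      Function.Surjective q ∧ Cfsg.IsStemExtension (f.comp p) ∧ commutator D = ⊤ ∧
      ∀ a a' b b', f a = g b → f a' = g b' → ∃ d, p d = ⁅a, a'⁆ ∧ q d = ⁅b, b'⁆ := by
  let P : Subgroup (A × B) := (f.comp (MonoidHom.fst A B)).eqLocus (g.comp (MonoidHom.snd A B))
  have hmem : ∀ x : A × B, x ∈ P ↔ f x.1 = g x.2 := fun x => Iff.rfl
  let pA : P →* A := (MonoidHom.fst A B).comp P.subtype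
  let pB : P →* B := (MonoidHom.snd A B).comp P.subtype
  have hpA : Function.Surjective pA := fun a => by
    obtain ⟨b, hb⟩ := hg (f a)
    exact ⟨⟨(a, b), hb.symm⟩, rfl⟩
  have hpB : Function.Surjective pB := fun b => by
    obtain ⟨a, ha⟩ := hf (g b)
    exact ⟨⟨(a, b), ha⟩, rfl⟩
  let D : Subgroup P := commutator P
  have hDA : D.map pA = ⊤ := (CentralExt.map_commutator_top pA hpA).trans hA
  have hDB : D.map pB = ⊤ := (CentralExt.map_commutator_top pB hpB).trans hB
  have hcen : ∀ x : P, pA x = 1 → x ∈ center P := by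
    intro x hx
    have h2 : pB x ∈ center B := hgc (by
      rw [MonoidHom.mem_ker]
      have h : f (pA x) = g (pB x) := x.2
      rw [← h, hx, map_one])
    rw [Subgroup.mem_center_iff]
    intro y
    refine Subtype.ext (Prod.ext ?_ (Subgroup.mem_center_iff.1 h2 (pB y)))
    show pA y * pA x = pA x * pA y
    rw [hx, mul_one, one_mul]
  have hperf : commutator D = ⊤ := by
    have h1 : ((commutator D).map D.subtype).map pA = ⊤ := by
      rw [_root_.commutator_def, Subgroup.map_commutator, ← MonoidHom.range_eq_map,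
        Subgroup.range_subtype, Subgroup.map_commutator, hDA]
      exact hA
    have hsup : (commutator D).map D.subtype ⊔ center P = ⊤ := by
      refine top_le_iff.1 fun x _ => ?_
      obtain ⟨y, hy, e⟩ : pA x ∈ ((commutator D).map D.subtype).map pA := h1 ▸ Subgroup.mem_top _
      have : x = y * (y⁻¹ * x) := by group
      rw [this]
      exact mul_mem (mem_sup_left hy)
        (mem_sup_right (hcen _ (by rw [map_mul, map_inv, e, inv_mul_cancel])))
    have h2 : D ≤ (commutator D).map D.subtype := CentralExt.commutator_le_of_sup_center hsup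
    refine top_le_iff.1 fun d _ => ?_
    obtain ⟨e, he, h⟩ := h2 d.2
    exact (Subtype.ext h : e = d) ▸ he
  have hsA : Function.Surjective (pA.comp D.subtype) := fun a => by
    obtain ⟨x, hx, e⟩ : a ∈ D.map pA := hDA ▸ Subgroup.mem_top a
    exact ⟨⟨x, hx⟩, e⟩
  have hsB : Function.Surjective (pB.comp D.subtype) := fun b => by
    obtain ⟨x, hx, e⟩ : b ∈ D.map pB := hDB ▸ Subgroup.mem_top b
    exact ⟨⟨x, hx⟩, e⟩
  refine ⟨D, inferInstance, inferInstance, pA.comp D.subtype, pB.comp D.subtype, ?_,
    MonoidHom.ext fun d => d.1.2, hsA, hsB, ⟨hf.comp hsA, ?_, hperf.symm ▸ le_top⟩, hperf, ?_⟩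
  · intro x y h
    exact Subtype.ext (Subtype.ext h)
  · intro x hx
    have h1 : pA x ∈ center A := hfc hx
    have h2 : pB x ∈ center B := hgc (by
      rw [MonoidHom.mem_ker]
      have h : f (pA x) = g (pB x) := x.1.2
      rw [← h]
      exact hx)
    rw [Subgroup.mem_center_iff]
    intro y
    exact Subtype.ext (Subtype.ext (Prod.ext (Subgroup.mem_center_iff.1 h1 (pA y))
      (Subgroup.mem_center_iff.1 h2 (pB y))))
  · intro a a' b b' h h'
    refine ⟨⟨⁅(⟨(a, b), h⟩ : P), ⟨(a', b'), h'⟩⁆,
      Subgroup.commutator_mem_commutator (mem_top _) (mem_top _)⟩, ?_, ?_⟩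
    · exact map_commutatorElement pA _ _
    · exact map_commutatorElement pB _ _

/-- The multiplier of a quotient of a perfect group by a central subgroup. -/
theorem card_schurMult_le_of_surjective {H G : Type} [Group H] [Group G] [Finite H] (f : H →* G)
    (hf : Function.Surjective f) (hc : f.ker ≤ center H) (hH : commutator H = ⊤) :
    Nat.card (CentralExt.schurMult G) ≤ Nat.card f.ker * Nat.card (CentralExt.schurMult H) := by
  have : Finite G := Finite.of_surjective f hf
  have hG : commutator G = ⊤ := by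
    rw [← CentralExt.map_commutator_top f hf, hH, Subgroup.map_top_of_surjective f hf]
  obtain ⟨W, _, _, θ, hθ, ⟨e⟩⟩ := CentralExt.exists_schurCover G
  have hW : commutator W = ⊤ := by
    refine CentralExt.eq_top_of_sup_ker hθ (top_le_iff.1 fun x _ => ?_)
    obtain ⟨y, hy, hy'⟩ : θ x ∈ (commutator W).map θ := by
      rw [CentralExt.map_commutator_top θ hθ.1, hG]; exact mem_top _
    have : x = y * (y⁻¹ * x) := by group
    rw [this]
    exact mul_mem (mem_sup_left hy)
      (mem_sup_right (by rw [MonoidHom.mem_ker, map_mul, map_inv, hy', inv_mul_cancel]))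
  obtain ⟨D, _, _, p, q, -, -, hp, hq, hst, hperf, -⟩ := exists_fibre f θ hf hθ.1 hc hθ.2.1 hH hW
  have hkc : p.ker ≤ center D := fun x hx => hst.2.1 (by
    rw [MonoidHom.mem_ker, MonoidHom.comp_apply, MonoidHom.mem_ker.1 hx, map_one])
  have hps : Cfsg.IsStemExtension p := ⟨hp, hkc, hperf.symm ▸ le_top⟩
  have hcard : ∀ {X Y : Type} [Group X] [Group Y] (φ : X →* Y), Function.Surjective φ →
      Nat.card X = Nat.card Y * Nat.card φ.ker := fun φ hφ => by
    rw [φ.ker.card_eq_card_quotient_mul_card_subgroup,
      Nat.card_congr (QuotientGroup.quotientKerEquivOfSurjective φ hφ).toEquiv]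
  have h1 : Nat.card W ≤ Nat.card D := Nat.card_le_card_of_surjective q hq
  rw [hcard θ hθ.1, hcard p hp, hcard f hf, mul_assoc, Nat.card_congr e.toEquiv] at h1
  refine (Nat.le_of_mul_le_mul_left h1 Nat.card_pos).trans ?_
  exact Nat.mul_le_mul_left _
    (Nat.le_of_dvd Nat.card_pos (CentralExt.card_ker_dvd_schurMult hps))

end Cfsg.Agent.PSU62Mult
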