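import Cfsg.Agent.SporB.FiTwoTwo.Unit
import Cfsg.Agent.CentralExt.Basic

/-! SU(6, 2) and PSU(6, 2) over the field of four elements are perfect. -/

set_option autoImplicit false
set_option maxRecDepth 100000

namespace Cfsg.Agent.PSU62Mult

open Cfsg.Agent.GFour25 Cfsg.Agent.SporB.FischerU

/-- The image of the point action. -/
noncomputable abbrev PG : Subgroup (Equiv.Perm (Fin 693)) := pointHom.range

theorem perfect_PG : commutator PG = ⊤ := by
  have := isSimpleGroup_range
  rcases IsSimpleGroup.eq_bot_or_eq_top_of_normal (commutator PG) inferInstance with h | h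
  · exfalso
    rw [commutator_eq_bot_iff_center_eq_top] at h
    let _ : CommGroup PG := Group.commGroupOfCenterEqTop h
    have hp := IsSimpleGroup.prime_card (α := PG)
    rw [card_range_pointHom] at hp
    norm_num at hp
  · exact h

theorem tv_mul_self (k : Fin 693) : tv k * tv k = 1 := by
  refine TTClass.UnitF4.act_ext fun x => ?_
  rw [TTClass.UnitF4.act_mul, TTClass.UnitF4.act_one, tv, TTClass.UnitF4.act_tSU card_F4,
    TTClass.UnitF4.act_tSU card_F4, TTClass.UnitF4.h_add_left, TTClass.UnitF4.h_smul_left,
    (pt_isotropic k).1, mul_zero, add_zero, add_assoc, ← add_smul, GFour25.add_self, zero_smul, add_zero]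

theorem perfect_SUSix : commutator SUSix = ⊤ := by
  have hπ : Function.Surjective pointHom.rangeRestrict := pointHom.rangeRestrict_surjective
  have hmap : (commutator SUSix).map pointHom.rangeRestrict = ⊤ :=
    (CentralExt.map_commutator_top _ hπ).trans perfect_PG
  have hz : Nat.card (Subgroup.center SUSix) = 3 := by
    rw [Classical.U.card_center_SU sqField_F4 (by norm_num)]
    rfl
  have ht : ∀ t : SUSix, t * t = 1 → t ∈ commutator SUSix := by
    intro t h
    obtain ⟨c, hc, e⟩ : pointHom.rangeRestrict t ∈ (commutator SUSix).map pointHom.rangeRestrict :=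
      hmap ▸ Subgroup.mem_top _
    have hzc : c⁻¹ * t ∈ Subgroup.center SUSix := by
      rw [← pointHom_ker, ← MonoidHom.ker_rangeRestrict, MonoidHom.mem_ker, map_mul, map_inv, e,
        inv_mul_cancel]
    set z := c⁻¹ * t with hzdef
    have hct : t = c * z := by rw [hzdef, mul_inv_cancel_left]
    have hcom : Commute c z := Subgroup.mem_center_iff.1 hzc c
    have hz3 : z ^ 3 = 1 := by
      have h' := pow_card_eq_one' (x := (⟨z, hzc⟩ : Subgroup.center SUSix))
      rw [hz] at h'
      exact congrArg Subtype.val h'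
    have e3 : t ^ 3 = t := by rw [pow_succ, pow_two, h, one_mul]
    rw [← e3, hct, hcom.mul_pow, hz3, mul_one]
    exact pow_mem hc 3
  rw [← top_le_iff, ← TTClass.UnitF4.generates card_F4 (by norm_num : 4 ≤ 6), TTClass.UnitF4.T,
    Subgroup.closure_le]
  rintro g ⟨v, h0, hv, hg⟩
  obtain ⟨c, hc, e⟩ := pt_spec v h0 hv
  have hgk : g = tv (idx v) := by
    refine TTClass.UnitF4.act_ext fun x => ?_
    rw [tv, TTClass.UnitF4.act_tSU card_F4, hg x]
    conv_lhs => rw [e]
    rw [TTClass.UnitF4.h_smul_right, smul_smul, mul_right_comm, f4_cube c hc, one_mul]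
  rw [hgk]
  exact ht _ (tv_mul_self _)

end Cfsg.Agent.PSU62Mult
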