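import Cfsg.Agent.PSU62Mult.Code
import Cfsg.Agent.PSU62Mult.Data
import Cfsg.Agent.PSU62Mult.Fibre
import Cfsg.Agent.PSU62Mult.Perfect
import Cfsg.Agent.SchurSmall.Rank

/-! The multiplier of PSU(6, 2) has order at most twelve. -/

set_option autoImplicit false
set_option maxRecDepth 100000
set_option maxHeartbeats 800000

namespace Cfsg.Agent.PSU62Mult

open Cfsg.Agent.GFour25 Cfsg.Agent.SporB.FischerU Cfsg.Agent.SchurCert Cfsg.Agent.SchurBound

theorem card_SUSix : Nat.card SUSix = 27590492160 := by
  rw [Subgroup.card_eq_card_quotient_mul_card_subgroup (Subgroup.center SUSix),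
    Classical.U.card_center_SU sqField_F4 (by norm_num), show Nat.card (SUSix ⧸ Subgroup.center SUSix) =
      9196830720 from (Nat.card_congr psuEquiv.toEquiv).trans card_range_pointHom]
  norm_num

/-- The code of the identity. -/
def oneCode : ℕ := encM 1

/-- All codes used. -/
def allCodes : List ℕ :=
  suExpCert.D.gens ++ suExpCert.D.gs ++ suRankCert.D.gens ++ suRankCert.D.gs ++
    suThreeCert.D.gens ++ suThreeCert.D.gs ++ [oneCode]

theorem allCodes_valid : allCodes.all validCode = true := by decide +kernel

/-- The element with a given code. -/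
noncomputable def suElem (c : ℕ) : SUSix :=
  if h : validCode c = true then (exists_of_validCode h).choose else 1

theorem enc_suElem {L : List ℕ} (hL : ∀ x ∈ L, x ∈ allCodes) (i : ℕ) :
    suCode.enc (suElem (L.getD i suCode.one)) = L.getD i suCode.one := by
  have h : validCode (L.getD i suCode.one) = true := by
    apply List.all_eq_true.1 allCodes_valid
    by_cases hi : i < L.length
    · rw [List.getD_eq_getElem _ _ hi]; exact hL _ (List.getElem_mem hi)
    · rw [List.getD_eq_default _ _ (Nat.le_of_not_lt hi)]
      show oneCode ∈ allCodes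
      simp [allCodes]
  rw [suElem, dif_pos h]
  exact (exists_of_validCode h).choose_spec

theorem suThree_check : suThreeCert.check mulM oneCode = true := by decide +kernel
theorem suRank_check : suRankCert.check mulM oneCode = true := by decide +kernel
theorem suExp_check : suExpCert.check mulM oneCode = true := by decide +kernel

theorem appliesSU (B : BCert) (p N m : ℕ) (hgm : ∀ x ∈ B.D.gens, x ∈ allCodes)
    (hfm : ∀ x ∈ B.D.gs, x ∈ allCodes) (hp : p.Prime) (hP : B.D.P.p = p) (hn : B.D.P.p ^ B.D.P.n = N)
    (hm : 27590492160 = N * m) (hpm : ¬ p ∣ m) (hchk : B.check mulM oneCode = true) :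
    Applies suCode B p (fun i => suElem (B.D.gens.getD i suCode.one))
      (fun i => suElem (B.D.gs.getD i suCode.one)) := by
  have hgen : ∀ i < B.D.P.n, suCode.enc (suElem (B.D.gens.getD i suCode.one)) =
      B.D.gens.getD i suCode.one := fun i _ => enc_suElem hgm i
  have hc := hchk
  simp only [BCert.check, Bool.and_eq_true] at hc
  obtain ⟨-, hcard⟩ := card_initGroup_of_groupOK suCode B.D (hP.symm ▸ hp) _ hgen
    hc.1.1.1 hc.1.1.2
  refine ⟨hp, hP, hgen, enc_suElem hfm, ?_, hchk⟩
  have h := (initGroup (fun i => suElem (B.D.gens.getD i suCode.one)) B.D.P.n).card_mul_index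
  rw [hcard.trans hn, card_SUSix, hm] at h
  have hN : 0 < N := by rcases Nat.eq_zero_or_pos N with rfl | h0 <;> omega
  rwa [Nat.eq_of_mul_eq_mul_left hN h]

theorem card_schurMult_SUSix_le : Nat.card (CentralExt.schurMult SUSix) ≤ 4 := by
  have hpos : Nat.card (CentralExt.schurMult SUSix) ≠ 0 := Nat.card_pos.ne'
  refine Nat.le_of_dvd (by norm_num) ?_
  rw [← Nat.factorization_le_iff_dvd hpos (by norm_num)]
  intro p
  by_cases hp : p.Prime
  swap
  · simp [Nat.factorization_eq_zero_of_not_prime _ hp]
  rcases eq_or_ne p 2 with rfl | h2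
  · refine (SchurSmall.factorization_schurMult_le suCode (k := 1) (r := 2)
      (appliesSU suRankCert 2 32768 841995 (fun x hx => by simp [allCodes, hx])
        (fun x hx => by simp [allCodes, hx]) Nat.prime_two rfl rfl (by norm_num) (by norm_num) suRank_check)
      (appliesSU suExpCert 2 32768 841995 (fun x hx => by simp [allCodes, hx])
        (fun x hx => by simp [allCodes, hx]) Nat.prime_two rfl rfl (by norm_num) (by norm_num) suExp_check)
      rfl rfl le_rfl rfl rfl rfl).trans ?_
    exact (Nat.prime_two.pow_dvd_iff_le_factorization (by norm_num)).1 (by norm_num)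
  rcases eq_or_ne p 3 with rfl | h3
  · have h := appliesSU suThreeCert 3 2187 12615680 (fun x hx => by simp [allCodes, hx])
      (fun x hx => by simp [allCodes, hx]) Nat.prime_three rfl rfl (by norm_num) (by norm_num)
      suThree_check
    refine (SchurSmall.factorization_schurMult_le suCode (k := 0) (r := 0) h h
      rfl rfl le_rfl rfl rfl rfl).trans ?_
    exact Nat.zero_le _
  have : Fact p.Prime := ⟨hp⟩
  rw [Nat.factorization_eq_zero_of_not_dvd (not_dvd_schurMult_of_sq_not_dvd p fun hsq => ?_)]
  · exact Nat.zero_le _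
  rw [card_SUSix] at hsq
  have h27 : (27590492160 : ℕ) = 2 ^ 15 * (3 ^ 7 * 385) := by norm_num
  rw [h27] at hsq
  have hc2 : (p ^ 2).Coprime (2 ^ 15) :=
    Nat.Coprime.pow _ _ ((Nat.coprime_primes hp Nat.prime_two).2 h2)
  have hc3 : (p ^ 2).Coprime (3 ^ 7) :=
    Nat.Coprime.pow _ _ ((Nat.coprime_primes hp Nat.prime_three).2 h3)
  have hd := hc3.dvd_of_dvd_mul_left (hc2.dvd_of_dvd_mul_left hsq)
  have hle : p ^ 2 ≤ 385 := Nat.le_of_dvd (by norm_num) hd
  have hlt : p < 20 := by nlinarith
  have key : ∀ q < 20, q ^ 2 ∣ 385 → q = 1 := by decide +kernel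
  exact hp.ne_one (key p hlt hd)

/-- The upper bound on the multiplier of PSU(6, 2). -/
theorem card_schurMult_PG_le : Nat.card (CentralExt.schurMult PG) ≤ 12 := by
  have hc : pointHom.rangeRestrict.ker = Subgroup.center SUSix := by
    rw [MonoidHom.ker_rangeRestrict, pointHom_ker]
  refine (card_schurMult_le_of_surjective _ pointHom.rangeRestrict_surjective hc.le perfect_SUSix).trans ?_
  rw [hc, Classical.U.card_center_SU sqField_F4 (by norm_num)]
  exact (Nat.mul_le_mul_left _ card_schurMult_SUSix_le).trans (by norm_num)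

/-- The upper bound, for the group itself. -/
theorem card_schurMult_PSU_le : Nat.card (CentralExt.schurMult (Cfsg.PSU 6 F4 2)) ≤ 12 := by
  obtain ⟨i⟩ := CentralExt.nonempty_schurMult_congr psuEquiv
  exact (Nat.card_congr i.toEquiv).trans_le card_schurMult_PG_le

end Cfsg.Agent.PSU62Mult
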