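import Cfsg.Agent.SporB.FiTwoTwo.Unit
import Cfsg.Agent.SchurCert.Trivial
import Cfsg.Agent.RecogA.ThreeSpectrum

/-! A code of SU(6, 2) over the field of four elements: six rows packed into twelve bits each. -/

set_option autoImplicit false
set_option maxRecDepth 100000

namespace Cfsg.Agent.PSU62Mult

open Cfsg.Agent.CosetCert Cfsg.Agent.GFour25 Cfsg.Agent.SporB.FischerU Cfsg.Agent.SchurCert

/-- Matrices. -/
abbrev Mat6 : Type := Matrix (Fin 6) (Fin 6) F4

/-- Lanes of twelve bits. -/
def pack : List ℕ → ℕ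
  | [] => 0
  | a :: L => a + 4096 * pack L

theorem pack_lane : ∀ (L : List ℕ) (l : ℕ), (∀ x ∈ L, x < 4096) →
    (pack L >>> (12 * l)) &&& 4095 = L.getD l 0 := by
  intro L
  induction L with
  | nil => intro l _; simp [pack]
  | cons a L ih =>
    intro l h
    have ha := h a List.mem_cons_self
    rw [show (4095 : ℕ) = 2 ^ 12 - 1 by norm_num, Nat.and_two_pow_sub_one_eq_mod,
      Nat.shiftRight_eq_div_pow, pow_mul]
    cases l with
    | zero => simp [pack]; omega
    | succ l =>
      have e : pack (a :: L) / (2 ^ 12) ^ (l + 1) = pack L / (2 ^ 12) ^ l := by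
        rw [pow_succ', ← Nat.div_div_eq_div_mul, pack]
        congr 1
        omega
      rw [e, List.getD_cons_succ, ← ih l fun x hx => h x (List.mem_cons_of_mem _ hx),
        show (4095 : ℕ) = 2 ^ 12 - 1 by norm_num, Nat.and_two_pow_sub_one_eq_mod,
        Nat.shiftRight_eq_div_pow, pow_mul]

theorem pack_shift : ∀ (L : List ℕ) (k : ℕ), k < 12 → (∀ x ∈ L, x < 4096) →
    (pack L >>> k) &&& pack (L.map fun _ => 1) = pack (L.map fun x => x / 2 ^ k % 2) := by
  intro L
  induction L with
  | nil => intro k _ _; simp [pack]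
  | cons a L ih =>
    intro k hk h
    have ha := h a List.mem_cons_self
    have hi := ih k hk fun x hx => h x (List.mem_cons_of_mem _ hx)
    simp only [List.map_cons, pack]
    rw [← hi]
    generalize pack L = b
    generalize pack (L.map fun _ => 1) = m
    rw [Nat.shiftRight_eq_div_pow, Nat.shiftRight_eq_div_pow,
      ← Nat.mod_add_div (((a + 4096 * b) / 2 ^ k) &&& (1 + 4096 * m)) (2 ^ 12)]
    rw [Nat.and_mod_two_pow, Nat.and_div_two_pow]
    have h1 : (1 + 4096 * m) % 2 ^ 12 = 1 := by omega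
    have h2 : (1 + 4096 * m) / 2 ^ 12 = m := by omega
    rw [h1, h2, Nat.and_one_is_mod]
    congr 1
    · interval_cases k <;> omega
    · congr 2
      rw [Nat.div_div_eq_div_mul, Nat.mul_comm (2 ^ k) (2 ^ 12), ← Nat.div_div_eq_div_mul]
      congr 1
      omega

theorem pack_mul (y : ℕ) : ∀ L : List ℕ, pack L * y = pack (L.map (· * y)) := by
  intro L
  induction L with
  | nil => simp [pack]
  | cons a L ih => simp only [List.map_cons, pack]; rw [← ih]; ring

theorem pack_xor (f g : ℕ → ℕ) : ∀ L : List ℕ, (∀ x ∈ L, f x < 4096) → (∀ x ∈ L, g x < 4096) →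
    pack (L.map f) ^^^ pack (L.map g) = pack (L.map fun x => f x ^^^ g x) := by
  intro L
  induction L with
  | nil => intros; simp [pack]
  | cons a L ih =>
    intro hf hg
    have hfa := hf a List.mem_cons_self
    have hga := hg a List.mem_cons_self
    have hi := ih (fun x hx => hf x (List.mem_cons_of_mem _ hx)) (fun x hx => hg x (List.mem_cons_of_mem _ hx))
    simp only [List.map_cons, pack]
    rw [← hi]
    generalize pack (L.map f) = p
    generalize pack (L.map g) = q
    rw [← Nat.mod_add_div ((f a + 4096 * p) ^^^ (g a + 4096 * q)) (2 ^ 12), Nat.xor_mod_two_pow,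
      Nat.xor_div_two_pow, show (f a + 4096 * p) % 2 ^ 12 = f a by omega,
      show (g a + 4096 * q) % 2 ^ 12 = g a by omega, show (f a + 4096 * p) / 2 ^ 12 = p by omega,
      show (g a + 4096 * q) / 2 ^ 12 = q by omega]
    rfl

/-- Multiplication of a vector by the primitive element. -/
def wMul (x : ℕ) : ℕ := ((x >>> 1) &&& 1365) ||| (((x &&& 1365) ^^^ ((x >>> 1) &&& 1365)) <<< 1)

/-- The primitive element. -/
def omg : F4 := ⟨false, true⟩

theorem enc_add_le (u v : Vec) : enc (u + v) = enc u ^^^ enc v := by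
  have hc : ∀ a b : F4, code4 (a + b) = code4 a ^^^ code4 b := by decide
  have hx : ∀ x x' y y' : ℕ, x < 4 → x' < 4 → (x + 4 * y) ^^^ (x' + 4 * y') = (x ^^^ x') + 4 * (y ^^^ y') := by
    intro x x' y y' h h'
    rw [← Nat.mod_add_div ((x + 4 * y) ^^^ (x' + 4 * y')) (2 ^ 2), Nat.xor_mod_two_pow,
      Nat.xor_div_two_pow, show (x + 4 * y) % 2 ^ 2 = x by omega, show (x' + 4 * y') % 2 ^ 2 = x' by omega,
      show (x + 4 * y) / 2 ^ 2 = y by omega, show (x' + 4 * y') / 2 ^ 2 = y' by omega]
    rfl
  have he : ∀ w : Vec, enc w = code4 (w 0) + 4 * (code4 (w 1) + 4 * (code4 (w 2) + 4 * (code4 (w 3) +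
      4 * (code4 (w 4) + 4 * code4 (w 5))))) := fun w => by unfold enc; ring
  simp only [he, Pi.add_apply, hc]
  rw [hx _ _ _ _ (code4_lt _) (code4_lt _), hx _ _ _ _ (code4_lt _) (code4_lt _),
    hx _ _ _ _ (code4_lt _) (code4_lt _), hx _ _ _ _ (code4_lt _) (code4_lt _),
    hx _ _ _ _ (code4_lt _) (code4_lt _)]

theorem enc_zero : enc (0 : Vec) = 0 := by decide

theorem wMul_enc (v : Vec) : wMul (enc v) = enc (omg • v) := by
  have hb : allB (fun n => Nat.beq (wMul n) (enc (fun i => omg * vecN n i))) 12 0 = true := by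
    decide +kernel
  have h := Nat.eq_of_beq_eq_true (allB_spec_zero hb (by norm_num : 4096 ≤ 2 ^ 12) (enc_lt v))
  rw [h, vecN_enc]
  rfl

theorem enc_smul (c : F4) (v : Vec) :
    enc (c • v) = (code4 c % 2) * enc v ^^^ (code4 c / 2) * wMul (enc v) := by
  obtain ⟨a, b⟩ := c
  cases a <;> cases b
  · simp [code4, show (⟨false, false⟩ : F4) = 0 from rfl, enc_zero]
  · simp [code4, wMul_enc, omg]
  · simp [code4, show (⟨true, false⟩ : F4) = 1 from rfl]
  · rw [show (⟨true, true⟩ : F4) = 1 + omg from rfl, add_smul, one_smul, enc_add_le, wMul_enc]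
    simp [code4, show (1 : F4) + omg = ⟨true, true⟩ from rfl]

/-- The lanes of a column. -/
def colBit (A k : ℕ) : ℕ := (A >>> k) &&& 1153203048319815681

/-- One term of the product. -/
def term (A B l : ℕ) : ℕ :=
  colBit A (2 * l) * ((B >>> (12 * l)) &&& 4095) ^^^
    colBit A (2 * l + 1) * wMul ((B >>> (12 * l)) &&& 4095)

/-- The product of two codes. -/
def mulM (A B : ℕ) : ℕ :=
  term A B 0 ^^^ term A B 1 ^^^ term A B 2 ^^^ term A B 3 ^^^ term A B 4 ^^^ term A B 5

/-- The rows of a matrix as numbers. -/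
def rowsOf (M : Mat6) : List ℕ := [enc (M 0), enc (M 1), enc (M 2), enc (M 3), enc (M 4), enc (M 5)]

/-- The code of a matrix. -/
def encM (M : Mat6) : ℕ := pack (rowsOf M)

theorem rowsOf_lt (M : Mat6) : ∀ x ∈ rowsOf M, x < 4096 := by
  intro x hx
  simp only [rowsOf, List.mem_cons, List.not_mem_nil, or_false] at hx
  rcases hx with rfl | rfl | rfl | rfl | rfl | rfl <;> exact enc_lt _

theorem rowsOf_getD (M : Mat6) (i : Fin 6) : (rowsOf M).getD i 0 = enc (M i) := by
  fin_cases i <;> rfl

theorem enc_bits (v : Vec) (l : Fin 6) :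
    enc v / 2 ^ (2 * (l : ℕ)) % 2 = code4 (v l) % 2 ∧ enc v / 2 ^ (2 * (l : ℕ) + 1) % 2 = code4 (v l) / 2 := by
  have h0 := code4_lt (v 0); have h1 := code4_lt (v 1); have h2 := code4_lt (v 2)
  have h3 := code4_lt (v 3); have h4 := code4_lt (v 4); have h5 := code4_lt (v 5)
  unfold enc
  fin_cases l <;> simp <;> omega

theorem term_enc (M N : Mat6) (l : Fin 6) :
    term (encM M) (encM N) l = encM (Matrix.of fun i => M i l • N l) := by
  have hl : 2 * (l : ℕ) + 1 < 12 := by omega
  have hmask : (1153203048319815681 : ℕ) = pack ((rowsOf M).map fun _ => 1) := by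
    simp [rowsOf, pack]
  unfold term colBit
  rw [encM, encM, encM, pack_lane _ _ (rowsOf_lt N), rowsOf_getD, hmask,
    pack_shift _ _ (by omega) (rowsOf_lt M), pack_shift _ _ hl (rowsOf_lt M), pack_mul, pack_mul,
    List.map_map, List.map_map, pack_xor]
  · congr 1
    simp only [rowsOf, List.map_cons, List.map_nil, Function.comp_apply]
    simp only [(enc_bits (M 0) l).1, (enc_bits (M 0) l).2, (enc_bits (M 1) l).1, (enc_bits (M 1) l).2,
      (enc_bits (M 2) l).1, (enc_bits (M 2) l).2, (enc_bits (M 3) l).1, (enc_bits (M 3) l).2,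
      (enc_bits (M 4) l).1, (enc_bits (M 4) l).2, (enc_bits (M 5) l).1, (enc_bits (M 5) l).2,
      show ∀ i, (Matrix.of fun i => M i l • N l : Mat6) i = M i l • N l from fun _ => rfl, enc_smul]
  · intro x _
    show x / 2 ^ (2 * (l : ℕ)) % 2 * enc (N l) < 4096
    have := enc_lt (N l)
    rcases Nat.mod_two_eq_zero_or_one (x / 2 ^ (2 * (l : ℕ))) with h | h <;> rw [h] <;> omega
  · intro x _
    show x / 2 ^ (2 * (l : ℕ) + 1) % 2 * wMul (enc (N l)) < 4096
    have := enc_lt (omg • N l)
    rw [← wMul_enc] at this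
    rcases Nat.mod_two_eq_zero_or_one (x / 2 ^ (2 * (l : ℕ) + 1)) with h | h <;> rw [h] <;> omega

theorem encM_add (M N : Mat6) : encM (M + N) = encM M ^^^ encM N := by
  have h : ∀ i, enc ((M + N) i) = enc (M i) ^^^ enc (N i) := fun i => enc_add_le _ _
  have hx := pack_xor (fun i : ℕ => (rowsOf M).getD i 0) (fun i => (rowsOf N).getD i 0)
    [0, 1, 2, 3, 4, 5]
    (fun i hi => by
      simp only [List.mem_cons, List.not_mem_nil, or_false] at hi
      rcases hi with rfl | rfl | rfl | rfl | rfl | rfl <;> exact enc_lt _)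
    (fun i hi => by
      simp only [List.mem_cons, List.not_mem_nil, or_false] at hi
      rcases hi with rfl | rfl | rfl | rfl | rfl | rfl <;> exact enc_lt _)
  simp only [List.map_cons, List.map_nil, rowsOf, List.getD_cons_zero, List.getD_cons_succ] at hx
  simp only [encM, rowsOf, h]
  exact hx.symm

theorem encM_mul (M N : Mat6) : encM (M * N) = mulM (encM M) (encM N) := by
  have e : M * N = Matrix.of (fun i => M i 0 • N 0) + Matrix.of (fun i => M i 1 • N 1) +
      Matrix.of (fun i => M i 2 • N 2) + Matrix.of (fun i => M i 3 • N 3) +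
      Matrix.of (fun i => M i 4 • N 4) + Matrix.of (fun i => M i 5 • N 5) := by
    ext i j
    rw [Matrix.mul_apply, Fin.sum_univ_six]
    rfl
  rw [e, encM_add, encM_add, encM_add, encM_add, encM_add, ← term_enc, ← term_enc, ← term_enc,
    ← term_enc, ← term_enc, ← term_enc]
  rfl

theorem encM_injective : Function.Injective encM := by
  intro M N h
  funext i
  rw [← vecN_enc (M i), ← vecN_enc (N i), ← rowsOf_getD M i, ← rowsOf_getD N i,
    ← pack_lane _ _ (rowsOf_lt M), ← pack_lane _ _ (rowsOf_lt N)]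
  unfold encM at h
  rw [h]

/-- Codes of the special unitary group. -/
def suCode : Code SUSix where
  mul := mulM
  one := encM 1
  enc g := encM (g : Matrix.SpecialLinearGroup (Fin 6) F4)
  enc_one := rfl
  enc_mul _ _ := encM_mul _ _
  enc_inj _ _ h := Subtype.ext (Subtype.ext (encM_injective h))

/-- The matrix of a code. -/
def readM (c : ℕ) : Mat6 := fun i => vecN ((c >>> (12 * (i : ℕ))) &&& 4095)

/-- The determinant in characteristic two, skipping zero entries. -/
def det2 : (k : ℕ) → Matrix (Fin k) (Fin k) F4 → F4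
  | 0, _ => 1
  | k + 1, M => ∑ j, if M 0 j = 0 then 0 else M 0 j * det2 k (M.submatrix Fin.succ j.succAbove)

theorem det2_eq : ∀ (k : ℕ) (M : Matrix (Fin k) (Fin k) F4), det2 k M = M.det := by
  intro k
  induction k with
  | zero => intro M; simp [det2]
  | succ k ih =>
    intro M
    rw [det2, Matrix.det_succ_row_zero]
    refine Finset.sum_congr rfl fun j _ => ?_
    have hn : (-1 : F4) = 1 := rfl
    rw [hn, one_pow, one_mul, ih]
    by_cases h : M 0 j = 0
    · rw [if_pos h, h, zero_mul]
    · rw [if_neg h]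

/-- A code of an element of the group. -/
def validCode (c : ℕ) : Bool :=
  decide (det2 6 (readM c) = 1) &&
    ((List.finRange 6).all fun i => (List.finRange 6).all fun j =>
      decide (hs (fun k => readM c k i) (fun k => readM c k j) = if i = j then 1 else 0)) &&
    Nat.beq (encM (readM c)) c

theorem exists_of_validCode {c : ℕ} (h : validCode c = true) : ∃ g : SUSix, suCode.enc g = c := by
  simp only [validCode, Bool.and_eq_true, decide_eq_true_eq, List.all_eq_true, List.mem_finRange,
    forall_const] at h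
  obtain ⟨⟨hd, hu⟩, hc⟩ := h
  refine ⟨⟨⟨readM c, det2_eq 6 _ ▸ hd⟩, ?_⟩, Nat.eq_of_beq_eq_true hc⟩
  have hadd : ∀ a b : F4, (a + b) ^ 2 = a ^ 2 + b ^ 2 := by decide
  refine (RecogA.mem_SU_iff two_ne_zero hadd).2 ?_
  ext i j
  rw [Matrix.mul_apply, Matrix.one_apply, ← hu i j, Fin.sum_univ_six]
  simp only [hs, Matrix.transpose_apply, Matrix.map_apply, pow_two]

end Cfsg.Agent.PSU62Mult
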