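import Cfsg.Agent.SporB.FiTwoTwo.Cover
import Cfsg.Agent.PSU62Mult.Fibre
import Cfsg.Agent.PSU62Mult.Perfect
import Cfsg.Agent.PSU62Mult.CoverChecks

/-! A stem extension of PSU(6, 2) with kernel of order twelve, made from the double cover inside the
Fischer group, its twist by a diagonal automorphism, and the special unitary group. -/

set_option autoImplicit false
set_option maxRecDepth 100000
set_option maxHeartbeats 800000

namespace Cfsg.Agent.PSU62Mult

open Cfsg.Agent.CosetCert Cfsg.Agent.CosetEnum Cfsg.Agent.GFour25 Cfsg.Agent.SporB.FischerU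
open scoped commutatorElement

theorem dl_conj_mem {p : Equiv.Perm (Fin 693)} (hp : p ∈ PG) : dl * p * dl⁻¹ ∈ PG := by
  change MulAut.conj dl p ∈ PG
  have h : PG.map (MulAut.conj dl).toMonoidHom ≤ PG := by
    conv_lhs => rw [PG, range_pointHom_eq]
    rw [MonoidHom.map_closure, Subgroup.closure_le]
    rintro _ ⟨_, ⟨j, rfl⟩, rfl⟩
    refine ⟨tv (dl (genTv j)), Equiv.ext fun k => ?_⟩
    rw [pointHom_tv]
    show _ = dl (pointHom (tv (genTv j)) (dl.symm k))
    rw [pointHom_tv]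
    exact (dl_tMove j k).symm
  exact h (Subgroup.mem_map_of_mem _ hp)

/-- The double cover acts on the isotropic points. -/
theorem exists_rho : ∃ ρ : fiSub →* Equiv.Perm (Fin 693), ρ.range = PG ∧ Nat.card ρ.ker = 2 ∧
    ∀ (w : List ℕ), okWord w = true → ∀ (hm : val w ∈ fiSub) (k : Fin 693),
      piN (FiTwentyTwoU.data.run w (secT.get 16 k)) = (ρ ⟨val w, hm⟩ k : ℕ) := by
  classical
  obtain ⟨hsimp, hcard⟩ := CosetEnum.FiTwentyTwo.main
  obtain ⟨φ, hinj, hval, hmem, -⟩ := fi_data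
  have hfinG : Finite Cfsg.Spor.Fi22 := Nat.finite_of_card_ne_zero (by rw [hcard]; norm_num)
  have hidx : fiSub.index = 3510 := fiSub_eq ▸
    (index_eq FiTwentyTwoU.valid FiTwentyTwoU.word_letters FiTwentyTwoU.base_letters).trans
      (by decide +kernel)
  have hcardK : Nat.card fiSub = 18393661440 := by
    have h := fiSub.card_mul_index
    rw [hidx, hcard] at h
    omega
  have hok : ∀ i : Fin 9, okWord (word i) = true := by decide +kernel
  have hgenK : ∀ i, val (word i) ∈ fiSub := by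
    intro i
    rw [hmem]
    apply Fin.ext
    rw [hval _ (hok i)]
    revert i
    decide +kernel
  have hgood : ∀ i, Induces (φ (val (word i))) (quad i) := fun i x h => by
    rw [hval _ (hok i), compat_table i x h, quad_apply]
  have hquad : ∀ i, quad i ∈ pointHom.range := by
    intro i
    unfold quad
    split
    · exact one_mem _
    · exact ⟨_, rfl⟩
  have hall : ∀ s : fiSub, ∃ Q, Q ∈ pointHom.range ∧ Induces (φ s) Q := by
    rintro ⟨x, hx⟩
    have hxm : φ x ∈ ((Subgroup.closure {r | r ∈ FiTwentyTwoU.gensList}).map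
        (PresentedGroup.mk _)).map φ := ⟨x, fiSub_eq.symm ▸ hx, rfl⟩
    rw [Subgroup.map_map, MonoidHom.map_closure, ← Subgroup.mem_toSubmonoid,
      Subgroup.closure_toSubmonoid_of_finite] at hxm
    show ∃ Q, Q ∈ pointHom.range ∧ Induces (φ x) Q
    clear hx
    generalize φ x = p at hxm
    induction hxm using Submonoid.closure_induction with
    | one => exact ⟨1, one_mem _, Induces.one⟩
    | mul a b _ _ ha hb =>
      obtain ⟨P, hP', hP⟩ := ha
      obtain ⟨Q, hQ', hQ⟩ := hb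
      exact ⟨P * Q, mul_mem hP' hQ', hP.mul hQ⟩
    | mem p hp =>
      obtain ⟨r, hr, rfl⟩ := hp
      obtain ⟨u, hu, rfl⟩ := FiTwentyTwoU.valid.le_subs r hr
      obtain ⟨i, hi, rfl⟩ := List.getElem_of_mem hu
      have hi9 : i < 9 := subs_length ▸ hi
      refine ⟨quad ⟨i, hi9⟩, hquad _, ?_⟩
      have h := hgood ⟨i, hi9⟩
      simp only [word, val, List.getD_eq_getElem _ _ hi] at h
      exact h
  choose f hfr hf using hall
  let ρ : fiSub →* Equiv.Perm (Fin 693) :=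
    { toFun := f
      map_one' := (hf 1).unique (by simpa using Induces.one)
      map_mul' := fun s t => (hf (s * t)).unique (by simpa using (hf s).mul (hf t)) }
  let K' : Fin 9 → fiSub := fun i => ⟨val (word i), hgenK i⟩
  have hρ : ∀ i, ρ (K' i) = quad i := fun i => (hf (K' i)).unique (hgood i)
  have hrange : ρ.range = PG := by
    refine le_antisymm ?_ ?_
    · rintro _ ⟨s, rfl⟩; exact hfr s
    · rw [PG, range_pointHom_eq, Subgroup.closure_le]
      rintro _ ⟨j, rfl⟩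
      refine ⟨K' ⟨j + 1, by omega⟩, ?_⟩
      rw [hρ, quad, dif_neg (by simp)]
      rfl
  refine ⟨ρ, hrange, ?_, fun w hw hm k => ?_⟩
  · have h := ρ.ker.card_mul_index
    rw [Subgroup.index_ker, hrange, card_range_pointHom, hcardK] at h
    omega
  · have hk : piN (sec k) < 693 := (sec_spec k).2.symm ▸ k.2
    have hkk : (⟨piN (sec k), hk⟩ : Fin 693) = k := Fin.ext (sec_spec k).2
    have h := hf ⟨val w, hm⟩ (sec k) hk
    rw [hkk] at h
    exact (congrArg piN (hval w hw (sec k))).symm.trans h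

theorem perfect_fiSub : commutator fiSub = ⊤ ∧ Nat.card (Subgroup.center fiSub) = 2 := by
  have : Finite Cfsg.Spor.Fi22 :=
    Nat.finite_of_card_ne_zero (by rw [CosetEnum.FiTwentyTwo.main.2]; norm_num)
  obtain ⟨hcard, -, hsplit⟩ := fiSub_cover
  obtain ⟨ρ, hr, hker, -⟩ := exists_rho
  refine ⟨?_, hcard⟩
  have hnormal : ρ.ker ≤ Subgroup.center fiSub := by
    intro z hz
    rw [Subgroup.mem_center_iff]
    intro g
    obtain ⟨y, -, huniq⟩ := (Nat.card_eq_two_iff' (1 : ρ.ker)).1 hker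
    by_cases h1 : z = 1
    · rw [h1, mul_one, one_mul]
    have e1 := huniq ⟨z, hz⟩ fun h => h1 (congrArg Subtype.val h)
    have e2 := huniq ⟨g * z * g⁻¹, MonoidHom.normal_ker ρ |>.conj_mem z hz g⟩ fun h => h1 (by
      have h' : g * z * g⁻¹ = 1 := congrArg Subtype.val h
      simpa using h')
    have e := congrArg Subtype.val (e2.trans e1.symm)
    exact mul_inv_eq_iff_eq_mul.1 e
  have heq : Subgroup.center fiSub = ρ.ker :=
    (Subgroup.eq_of_le_of_card_ge hnormal (by rw [hcard, hker])).symm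
  set K := commutator fiSub with hK
  have hsup : K ⊔ Subgroup.center fiSub = ⊤ := by
    refine top_le_iff.1 fun x _ => ?_
    have hmap : K.map ρ.rangeRestrict = ⊤ := by
      rw [hK, CentralExt.map_commutator_top _ ρ.rangeRestrict_surjective]
      rw [hr]
      exact perfect_PG
    obtain ⟨y, hy, e⟩ : ρ.rangeRestrict x ∈ K.map ρ.rangeRestrict := hmap ▸ Subgroup.mem_top _
    have : x = y * (y⁻¹ * x) := by group
    rw [this]
    refine mul_mem (Subgroup.mem_sup_left hy) (Subgroup.mem_sup_right ?_)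
    rw [heq, MonoidHom.mem_ker, map_mul, map_inv,
      show ρ y = ρ x from congrArg Subtype.val e, inv_mul_cancel]
  have hne : ¬ Disjoint (Subgroup.center fiSub) K := fun hd =>
    hsplit K (Subgroup.isComplement'_of_disjoint_and_mul_eq_univ hd (by
      rw [← Subgroup.normal_mul, sup_comm, hsup, Subgroup.coe_top]))
  have hle : Subgroup.center fiSub ≤ K := by
    rw [Subgroup.disjoint_def] at hne
    push Not at hne
    obtain ⟨x, hx, hxK, hx1⟩ := hne
    obtain ⟨y, -, huniq⟩ := (Nat.card_eq_two_iff' (1 : Subgroup.center fiSub)).1 hcard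
    intro z hz
    by_cases h1 : z = 1
    · exact h1 ▸ one_mem K
    have e1 := huniq ⟨z, hz⟩ fun h => h1 (congrArg Subtype.val h)
    have e2 := huniq ⟨x, hx⟩ fun h => hx1 (congrArg Subtype.val h)
    rw [show z = x from congrArg Subtype.val (e1.trans e2.symm)]
    exact hxK
  rwa [sup_eq_left.2 hle] at hsup

theorem val_reverse {φ : Cfsg.Spor.Fi22 →* Equiv.Perm (Fin 3510)} (hinj : Function.Injective φ)
    (hval : ∀ w, okWord w = true → ∀ x : Fin 3510, (φ (val w) x : ℕ) = FiTwentyTwoU.data.run w x) :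
    ∀ w : List ℕ, okWord w = true → val w.reverse = (val w)⁻¹ := by
  intro w
  induction w with
  | nil => intro _; simp [val, pval]
  | cons l w ih =>
    intro hw
    simp only [okWord, List.all_cons, Bool.and_eq_true] at hw
    have h1 : 1 ≤ l := Nat.le_of_ble_eq_true hw.1.1
    have h9 : l < 10 := Nat.lt_succ_of_le (Nat.le_of_ble_eq_true hw.1.2)
    obtain ⟨h2, h3⟩ := (letters_inv ⟨l, h9⟩).resolve_left (Nat.one_le_iff_ne_zero.1 h1)
    have e := val_eq_one hinj hval [l, l] h2 h3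
    rw [show [l, l] = [l] ++ [l] from rfl, val_append] at e
    rw [show l :: w = [l] ++ w from rfl, List.reverse_append, val_append, val_append,
      ih (by simpa [okWord] using hw.2), List.reverse_singleton, mul_inv_rev, inv_eq_of_mul_eq_one_left e]

/-- The twisted pair whose commutators differ. -/
theorem exists_pair {ρ : fiSub →* Equiv.Perm (Fin 693)} (hker : Nat.card ρ.ker = 2)
    (hρ : ∀ (w : List ℕ), okWord w = true → ∀ (hm : val w ∈ fiSub) (k : Fin 693),
      ptImg w k = (ρ ⟨val w, hm⟩ k : ℕ)) :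
    ∃ a a' b b' : fiSub, ρ a = dl * ρ b * dl⁻¹ ∧ ρ a' = dl * ρ b' * dl⁻¹ ∧
      ⁅a, a'⁆ = 1 ∧ ⁅b, b'⁆ ≠ 1 := by
  obtain ⟨φ, hinj, hval, hmem, -⟩ := fi_data
  obtain ⟨oA, oB, oC, oE, oAB, oCE⟩ := words_ok
  obtain ⟨bA, bB, bC, bE, pAB, pCE, pT⟩ := words_base
  obtain ⟨oT, bT, hT⟩ := transA_pts
  have hin : ∀ w, okWord w = true → FiTwentyTwoU.data.run w 0 = 0 → val w ∈ fiSub := by
    intro w hw h
    rw [hmem]
    apply Fin.ext
    rw [hval w hw]
    exact h
  set A : fiSub := ⟨val wordA, hin _ oA bA⟩ with hA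
  set B : fiSub := ⟨val wordB, hin _ oB bB⟩ with hB
  set C : fiSub := ⟨val wordC, hin _ oC bC⟩ with hC
  set E : fiSub := ⟨val wordE, hin _ oE bE⟩ with hE
  set T : fiSub := ⟨val [1], hin _ oT bT⟩ with hTdef
  have hcomm : ∀ (u v : List ℕ) (hu : val u ∈ fiSub) (hv : val v ∈ fiSub), okWord u = true →
      okWord v = true → ((⁅(⟨val u, hu⟩ : fiSub), ⟨val v, hv⟩⁆ : fiSub) : Cfsg.Spor.Fi22) =
        val (commWord u v) := by
    intro u v hu hv ou ov
    show ⁅val u, val v⁆ = _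
    rw [commWord, val_append, val_append, val_append, val_reverse hinj hval u ou,
      val_reverse hinj hval v ov, commutatorElement_def]
    group
  have htw : ∀ (u v : List ℕ) (hu : val u ∈ fiSub) (hv : val v ∈ fiSub), okWord u = true →
      okWord v = true → (∀ k : Fin 693, ptImg v (dl k) =
        (dl ⟨ptImg u k % 693, Nat.mod_lt _ (Nat.succ_pos _)⟩ : ℕ)) →
      ρ ⟨val v, hv⟩ = dl * ρ ⟨val u, hu⟩ * dl⁻¹ := by
    intro u v hu hv ou ov h
    refine eq_mul_inv_iff_mul_eq.2 (Equiv.ext fun k => Fin.ext ?_)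
    rw [Equiv.Perm.mul_apply, Equiv.Perm.mul_apply, ← hρ v ov hv, h k]
    congr 2
    apply Fin.ext
    show ptImg u k % 693 = _
    rw [hρ u ou hu k, Nat.mod_eq_of_lt (ρ ⟨val u, hu⟩ k).2]
  have h1 := hmem (val [1])
  have hTker : T ∈ ρ.ker := by
    rw [MonoidHom.mem_ker]
    refine Equiv.ext fun k => Fin.ext ?_
    rw [← hρ _ oT, hT k]
    rfl
  refine ⟨C, E, A, B, htw _ _ _ _ oA oC fun k => (words_twist k).1,
    htw _ _ _ _ oB oE fun k => (words_twist k).2, ?_, fun h => pAB ?_⟩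
  · have hk : ⁅C, E⁆ ∈ ρ.ker := by
      rw [MonoidHom.mem_ker]
      refine Equiv.ext fun k => Fin.ext ?_
      have hm : val (commWord wordC wordE) ∈ fiSub := hcomm _ _ C.2 E.2 oC oE ▸ (⁅C, E⁆ : fiSub).2
      rw [show (⁅C, E⁆ : fiSub) = ⟨_, hm⟩ from Subtype.ext (hcomm _ _ C.2 E.2 oC oE),
        ← hρ _ oCE hm, words_comm k]
      rfl
    have hmove : ∀ x : fiSub, x = T → (φ x.1 1 : ℕ) ≠ 1 := by
      intro x hx
      rw [hx, hTdef, hval _ oT]
      exact pT
    have hT1 : T ≠ 1 := fun h => by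
      have h' := hmove 1 h.symm
      exact h' (by simp)
    obtain ⟨y, -, huniq⟩ := (Nat.card_eq_two_iff' (1 : ρ.ker)).1 hker
    by_contra hne
    have e1 := huniq ⟨_, hk⟩ fun h => hne (congrArg Subtype.val h)
    have e2 := huniq ⟨T, hTker⟩ fun h => hT1 (congrArg Subtype.val h)
    refine hmove _ (congrArg Subtype.val (e1.trans e2.symm)) ?_
    rw [hcomm _ _ C.2 E.2 oC oE, hval _ oCE]
    exact pCE
  · have hw : val (commWord wordA wordB) = 1 := by
      rw [← hcomm _ _ A.2 B.2 oA oB]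
      exact congrArg Subtype.val h
    have := hval _ oAB 1
    rw [hw, _root_.map_one φ, Equiv.Perm.one_apply] at this
    exact this.symm

/-- A stem extension with kernel of type `(3, 2, 2)`. -/
theorem exists_stem : ∃ (D : Type) (_ : Group D) (τ : D →* PG), Cfsg.IsStemExtension τ ∧
    Nonempty (τ.ker ≃* Multiplicative (ZMod 3 × ZMod 2 × ZMod 2)) := by
  have : Finite Cfsg.Spor.Fi22 :=
    Nat.finite_of_card_ne_zero (by rw [CosetEnum.FiTwentyTwo.main.2]; norm_num)
  obtain ⟨ρ, hr, hker, hρ⟩ := exists_rho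
  obtain ⟨hperf, hcen⟩ := perfect_fiSub
  obtain ⟨a, a', b, b', ha, ha', hca, hcb⟩ := exists_pair hker hρ
  have hmem : ∀ x, ρ x ∈ PG := fun x => hr ▸ ⟨x, rfl⟩
  let σ₁ : fiSub →* PG := ρ.codRestrict PG hmem
  let σ₂ : fiSub →* PG := ((MulAut.conj dl).toMonoidHom.comp ρ).codRestrict PG fun x => dl_conj_mem (hmem x)
  have hk₁ : σ₁.ker = ρ.ker := MonoidHom.ker_codRestrict _ _ _
  have hk₂ : σ₂.ker = ρ.ker :=
    (MonoidHom.ker_codRestrict _ _ _).trans (MonoidHom.ker_comp_of_injective ρ _ (MulAut.conj dl).injective)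
  have hs₁ : Function.Surjective σ₁ := fun y => by
    obtain ⟨x, hx⟩ : (y : Equiv.Perm (Fin 693)) ∈ ρ.range := hr.symm ▸ y.2
    exact ⟨x, Subtype.ext hx⟩
  have hs₂ : Function.Surjective σ₂ := by
    have hi : Function.Injective (fun p : PG => (⟨dl * p * dl⁻¹, dl_conj_mem p.2⟩ : PG)) := fun p q h =>
      Subtype.ext ((MulAut.conj dl).injective (congrArg Subtype.val h))
    intro y
    obtain ⟨p, hp⟩ := (Finite.injective_iff_surjective.1 hi) y
    obtain ⟨x, hx⟩ := hs₁ p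
    exact ⟨x, by rw [← hp, ← hx]; rfl⟩
  obtain ⟨z, hz1, -⟩ := (Nat.card_eq_two_iff' (1 : ρ.ker)).1 hker
  have hkc : ρ.ker ≤ Subgroup.center fiSub := by
    intro x hx
    rw [Subgroup.mem_center_iff]
    intro g
    obtain ⟨y, -, huniq⟩ := (Nat.card_eq_two_iff' (1 : ρ.ker)).1 hker
    by_cases h1 : x = 1
    · rw [h1, mul_one, one_mul]
    have e1 := huniq ⟨x, hx⟩ fun h => h1 (congrArg Subtype.val h)
    have e2 := huniq ⟨g * x * g⁻¹, MonoidHom.normal_ker ρ |>.conj_mem x hx g⟩ fun h => h1 (by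
      have h' : g * x * g⁻¹ = 1 := congrArg Subtype.val h
      simpa using h')
    exact mul_inv_eq_iff_eq_mul.1 (congrArg Subtype.val (e2.trans e1.symm))
  obtain ⟨D₁, _, _, p₁, q₁, hi₁, he₁, hp₁, hq₁, hst₁, hperf₁, hpair⟩ :=
    exists_fibre σ₁ σ₂ hs₁ hs₂ (hk₁ ▸ hkc) (hk₂ ▸ hkc) hperf hperf
  -- the kernel over the two copies is the whole product
  obtain ⟨d, hdp, hdq⟩ := hpair a a' b b' (Subtype.ext ha) (Subtype.ext ha')
  rw [hca] at hdp
  have hdk : d ∈ (σ₁.comp p₁).ker := by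
    rw [MonoidHom.mem_ker, MonoidHom.comp_apply, hdp, map_one]
  have hfull₁ : ∀ x ∈ ρ.ker, ∀ y ∈ ρ.ker, ∃ e ∈ (σ₁.comp p₁).ker, p₁ e = x ∧ q₁ e = y := by
    have hqk : q₁ d ∈ ρ.ker := by
      rw [← hk₂, MonoidHom.mem_ker, ← MonoidHom.comp_apply, ← he₁]
      exact hdk
    obtain ⟨w, -, huniq⟩ := (Nat.card_eq_two_iff' (1 : ρ.ker)).1 hker
    have htwo : ∀ y ∈ ρ.ker, y = 1 ∨ y = q₁ d := fun y hy => by
      by_cases h1 : y = 1
      · exact Or.inl h1
      have e1 := huniq ⟨y, hy⟩ fun h => h1 (congrArg Subtype.val h)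
      have e2 := huniq ⟨_, hqk⟩ fun h => hcb (hdq ▸ congrArg Subtype.val h)
      exact Or.inr (congrArg Subtype.val (e1.trans e2.symm))
    intro x hx y hy
    obtain ⟨e, he⟩ := hp₁ x
    have hek : e ∈ (σ₁.comp p₁).ker := by
      rw [MonoidHom.mem_ker, MonoidHom.comp_apply, he]
      exact MonoidHom.mem_ker.1 (hk₁.symm ▸ hx)
    have hqe : q₁ e ∈ ρ.ker := by
      rw [← hk₂, MonoidHom.mem_ker, ← MonoidHom.comp_apply, ← he₁]
      exact hek
    rcases htwo _ (ρ.ker.mul_mem (ρ.ker.inv_mem hqe) hy) with h | h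
    · exact ⟨e, hek, he, (inv_mul_eq_one.1 h)⟩
    · refine ⟨e * d, mul_mem hek hdk, by rw [map_mul, he, hdp, mul_one], ?_⟩
      rw [map_mul, ← h, mul_inv_cancel_left]
  obtain ⟨D, _, _, p, q, hi, he, hp, hq, hst, -, -⟩ :=
    exists_fibre (σ₁.comp p₁) pointHom.rangeRestrict hst₁.1 pointHom.rangeRestrict_surjective hst₁.2.1
      (by rw [MonoidHom.ker_rangeRestrict, pointHom_ker]) hperf₁ perfect_SUSix
  set τ₁ := σ₁.comp p₁
  set π := pointHom.rangeRestrict
  have hπk : Nat.card π.ker = 3 := by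
    rw [show π.ker = Subgroup.center SUSix by rw [MonoidHom.ker_rangeRestrict, pointHom_ker],
      Classical.U.card_center_SU sqField_F4 (by norm_num)]
    rfl
  have hsq : ∀ x : ρ.ker, x ^ 2 = 1 := fun x => by rw [← hker]; exact pow_card_eq_one'
  have hsq₁ : ∀ e ∈ τ₁.ker, e ^ 2 = 1 := fun e hek => by
    apply hi₁
    have h1 : p₁ e ∈ ρ.ker := hk₁ ▸ hek
    have h2 : q₁ e ∈ ρ.ker := by
      rw [← hk₂, MonoidHom.mem_ker, ← MonoidHom.comp_apply, ← he₁]; exact hek
    exact Prod.ext ((map_pow p₁ e 2).trans ((congrArg Subtype.val (hsq ⟨_, h1⟩)).trans (map_one p₁).symm))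
      ((map_pow q₁ e 2).trans ((congrArg Subtype.val (hsq ⟨_, h2⟩)).trans (map_one q₁).symm))
  have hcube : ∀ c ∈ π.ker, c ^ 3 = 1 := fun c hc => by
    have h := pow_card_eq_one' (x := (⟨c, hc⟩ : π.ker))
    rw [hπk] at h
    exact congrArg Subtype.val h
  have hτmem : ∀ x, x ∈ (τ₁.comp p).ker ↔ p x ∈ τ₁.ker := fun x => Iff.rfl
  have hτmem' : ∀ x, x ∈ (τ₁.comp p).ker ↔ q x ∈ π.ker := fun x => by rw [he]; exact Iff.rfl
  let Φ : (τ₁.comp p).ker →* τ₁.ker × π.ker :=
    ((p.comp (τ₁.comp p).ker.subtype).codRestrict τ₁.ker fun x => x.2).prod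
      ((q.comp (τ₁.comp p).ker.subtype).codRestrict π.ker fun x => (hτmem' x).1 x.2)
  have hΦi : Function.Injective Φ := fun x y h => Subtype.ext (hi (Prod.ext
    (congrArg (fun t => (t.1 : D₁)) h) (congrArg (fun t => (t.2 : SUSix)) h)))
  have hΦs : Function.Surjective Φ := by
    rintro ⟨⟨e, hek⟩, ⟨c, hc⟩⟩
    obtain ⟨x, hx⟩ := hp e
    obtain ⟨y, hy⟩ := hq c
    have hxk : x ∈ (τ₁.comp p).ker := by rw [hτmem, hx]; exact hek
    have hyk : y ∈ (τ₁.comp p).ker := by rw [hτmem', hy]; exact hc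
    refine ⟨⟨x ^ 3 * y ^ 4, mul_mem (pow_mem hxk 3) (pow_mem hyk 4)⟩,
      Prod.ext (Subtype.ext ?_) (Subtype.ext ?_)⟩
    · show p (x ^ 3 * y ^ 4) = e
      rw [map_mul, map_pow, map_pow, hx, pow_succ e 2, hsq₁ e hek, one_mul,
        show (4 : ℕ) = 2 * 2 from rfl, pow_mul, hsq₁ _ hyk, one_pow, mul_one]
    · show q (x ^ 3 * y ^ 4) = c
      rw [map_mul, map_pow, map_pow, hy, hcube _ ((hτmem' x).1 hxk), one_mul, pow_succ, hcube c hc,
        one_mul]
  let Ψ : τ₁.ker →* ρ.ker × ρ.ker :=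
    ((p₁.comp τ₁.ker.subtype).codRestrict ρ.ker fun x => hk₁ ▸ x.2).prod
      ((q₁.comp τ₁.ker.subtype).codRestrict ρ.ker fun x => hk₂ ▸ (show q₁ x ∈ σ₂.ker by
        rw [MonoidHom.mem_ker, ← MonoidHom.comp_apply, ← he₁]; exact x.2))
  have hΨi : Function.Injective Ψ := fun x y h => Subtype.ext (hi₁ (Prod.ext
    (congrArg (fun t => (t.1 : fiSub)) h) (congrArg (fun t => (t.2 : fiSub)) h)))
  have hΨs : Function.Surjective Ψ := by
    rintro ⟨⟨x, hx⟩, ⟨y, hy⟩⟩
    obtain ⟨e, hek, h1, h2⟩ := hfull₁ x hx y hy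
    exact ⟨⟨e, hek⟩, Prod.ext (Subtype.ext h1) (Subtype.ext h2)⟩
  have : Fact (Nat.Prime 2) := ⟨Nat.prime_two⟩
  have : Fact (Nat.Prime 3) := ⟨Nat.prime_three⟩
  have : IsCyclic ρ.ker := isCyclic_of_prime_card hker
  have : IsCyclic π.ker := isCyclic_of_prime_card hπk
  let e2 : ρ.ker ≃* Multiplicative (ZMod 2) :=
    mulEquivOfCyclicCardEq (by rw [hker, Nat.card_congr Multiplicative.toAdd, Nat.card_zmod])
  let e3 : π.ker ≃* Multiplicative (ZMod 3) :=
    mulEquivOfCyclicCardEq (by rw [hπk, Nat.card_congr Multiplicative.toAdd, Nat.card_zmod])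
  refine ⟨D, inferInstance, τ₁.comp p, hst, ⟨?_⟩⟩
  exact (MulEquiv.ofBijective Φ ⟨hΦi, hΦs⟩).trans
    ((((MulEquiv.ofBijective Ψ ⟨hΨi, hΨs⟩).trans (e2.prodCongr e2)).prodCongr e3).trans
      (MulEquiv.prodComm.trans
        (((MulEquiv.refl _).prodCongr (MulEquiv.prodMultiplicative (ZMod 2) (ZMod 2)).symm).trans
          (MulEquiv.prodMultiplicative (ZMod 3) (ZMod 2 × ZMod 2)).symm)))

end Cfsg.Agent.PSU62Mult
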